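import Mathlib
import Cfsg.Agent.Lib.Helper60.OFM.Syl4Defs
import Cfsg.Agent.Lib.Helper37.OHyp.Geom
import Cfsg.Agent.Lib.Helper87.OHyp.Perp

/-!
# S5978 (team project OFM), cut of [SYL4]: leaf [EXK]

Every nondegenerate subspace of even dimension carries a structure (given [EX2] and [GLUE]):
induction on the dimension, splitting off a nondegenerate plane.
-/

set_option autoImplicit false

namespace Cfsg.Agent.Lib.Helper82.OFM

open Matrix Cfsg.Agent.Lib.Helper23.OHyp Cfsg.Agent.Lib.Helper60.OFM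

universe u

/-- [EXK] -/
theorem pkgExK : Cfsg.Agent.Lib.Helper60.OFM.PkgExK.{u} := by
  intro hEx2 hGlue F _ _ hodd ι _ _ Q hQ a
  classical
  have h2 : (2 : F) ≠ 0 := by
    apply Ring.two_ne_zero
    intro hc
    have h3 := FiniteField.even_card_of_char_two hc
    rw [Nat.odd_iff] at hodd
    omega
  suffices H : ∀ n : ℕ, ∀ W : Submodule F (ι → F), Module.finrank F W = n → Nd Q W → Even n →
      ∃ φ : Matrix ι ι F, StrOn Q a W φ by
    intro W hW hev
    exact H _ W rfl hW hev
  intro n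
  induction n using Nat.strong_induction_on with
  | _ n ih =>
    intro W hn hW hev
    by_cases h0 : n = 0
    · subst h0
      have hbot : W = ⊥ := Submodule.finrank_eq_zero.mp hn
      subst hbot
      refine ⟨0, ?_, ?_, ?_⟩
      · intro w _
        rw [Matrix.zero_mulVec]
        exact Submodule.zero_mem _
      · intro w hw
        rw [Submodule.mem_bot] at hw
        subst hw
        simp
      · intro u hu v hv
        rw [Submodule.mem_bot] at hu hv
        subst hu
        subst hv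
        simp
    by_cases h2' : n = 2
    · subst h2'
      exact hEx2 hodd Q hQ a W hW hn
    have hn4 : 4 ≤ n := by
      obtain ⟨k, hk⟩ := hev
      omega
    obtain ⟨W₀, hW₀le, hW₀nd, hW₀fr, -⟩ :=
      Cfsg.Agent.Lib.Helper37.OHyp.pkgGeom F ι Q hQ h2 W hW 2 True even_two (by omega)
        (fun _ => trivial)
    have hinv : ∀ U : Submodule F (ι → F),
        Cfsg.Agent.Lib.Helper23.OHyp.Inv (1 : Matrix ι ι F) U := by
      intro U
      unfold Cfsg.Agent.Lib.Helper23.OHyp.Inv
      rw [Matrix.toLin'_one]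
      simp
    obtain ⟨W', hW'le, -, hW'nd, hperp, hsup, hfr⟩ :=
      Cfsg.Agent.Lib.Helper87.OHyp.pkgPerp F ι Q hQ 1 (fun v => by rw [Matrix.one_mulVec])
        (by simp) W W₀ hW₀le (hinv W) (hinv W₀) hW hW₀nd
    have hfr' : Module.finrank F W' = n - 2 := by omega
    obtain ⟨φ', hφ'⟩ := ih (n - 2) (by omega) W' hfr' hW'nd (by
      obtain ⟨k, hk⟩ := hev
      exact ⟨k - 1, by omega⟩)
    obtain ⟨φ₀, hφ₀⟩ := hEx2 hodd Q hQ a W₀ hW₀nd hW₀fr
    obtain ⟨φ, hφ, -, -⟩ := hGlue hodd Q hQ a W W₀ W' hW₀nd hW'nd hperp hsup φ₀ φ' hφ₀ hφ'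
    exact ⟨φ, hφ⟩

end Cfsg.Agent.Lib.Helper82.OFM
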