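import Mathlib
import Cfsg.Agent.Lib.Helper60.OFM.Syl4Defs

/-!
# S5978 (team project OFM), cut of [SYL4]: leaf [GLUE]

Structures on two orthogonal nondegenerate summands glue.
-/

set_option autoImplicit false

namespace Cfsg.Agent.Lib.Helper82.OFM

open Matrix Cfsg.Agent.Lib.Helper23.OHyp Cfsg.Agent.Lib.Helper60.OFM

universe u

/-- [GLUE] -/
theorem pkgGlue : Cfsg.Agent.Lib.Helper60.OFM.PkgGlue.{u} := by
  intro F _ _ hodd ι _ _ Q hQ a W C N hC hN hperp hsup φC φN hφC hφN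
  classical
  have hB := hQ.polar_bilinear
  have hsymm : ∀ u v, QuadraticMap.polar Q u v = QuadraticMap.polar Q v u :=
    fun u v => QuadraticMap.polar_comm Q u v
  -- C and N are disjoint
  have hdisj : Disjoint C N := by
    rw [Submodule.disjoint_def]
    intro x hxC hxN
    by_contra hx0
    obtain ⟨y, hyC, hy⟩ := (hC x hxC hx0).1
    exact hy (hperp y hyC x hxN)
  -- a complement of `C` containing `N`
  obtain ⟨W', hW'⟩ := Submodule.exists_isCompl (C ⊔ N)
  have hcompl : IsCompl C (N ⊔ W') := by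
    constructor
    · rw [Submodule.disjoint_def]
      intro x hxC hx
      obtain ⟨n, hn, w', hw', hxe⟩ := Submodule.mem_sup.mp hx
      have hw'0 : w' = 0 := by
        have h1 : w' ∈ C ⊔ N := by
          have : w' = x - n := by rw [← hxe]; abel
          rw [this]
          exact Submodule.sub_mem _ (Submodule.mem_sup_left hxC) (Submodule.mem_sup_right hn)
        exact (Submodule.disjoint_def.mp hW'.disjoint) w' h1 hw'
      rw [hw'0, add_zero] at hxe
      rw [← hxe] at hxC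
      rw [← hxe]
      exact (Submodule.disjoint_def.mp hdisj) n hxC hn
    · rw [codisjoint_iff, ← sup_assoc]
      exact codisjoint_iff.mp hW'.codisjoint
  set p : (ι → F) →ₗ[F] (ι → F) := C.subtype ∘ₗ (C.projectionOnto (N ⊔ W') hcompl) with hp
  have hpC : ∀ c ∈ C, p c = c := by
    intro c hc
    have h1 := Submodule.projectionOnto_apply_left hcompl ⟨c, hc⟩
    simp only [hp, LinearMap.comp_apply, Submodule.subtype_apply]
    exact congrArg Subtype.val h1
  have hpN : ∀ n ∈ N, p n = 0 := by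
    intro n hn
    have h1 := Submodule.projectionOnto_apply_of_mem_right hcompl
      (Submodule.mem_sup_left hn : n ∈ N ⊔ W')
    simp only [hp, LinearMap.comp_apply, Submodule.subtype_apply, h1, Submodule.coe_zero]
  set Pm : Matrix ι ι F := LinearMap.toMatrix' p with hPm
  have hPmv : ∀ v, Pm *ᵥ v = p v := fun v => LinearMap.toMatrix'_mulVec p v
  set φ : Matrix ι ι F := φC * Pm + φN * (1 - Pm) with hφ
  have hφv : ∀ v, φ *ᵥ v = φC *ᵥ (p v) + φN *ᵥ (v - p v) := by
    intro v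
    rw [hφ, Matrix.add_mulVec, ← Matrix.mulVec_mulVec, ← Matrix.mulVec_mulVec, Matrix.sub_mulVec,
      Matrix.one_mulVec, hPmv]
  have hφCv : ∀ c ∈ C, φ *ᵥ c = φC *ᵥ c := by
    intro c hc
    rw [hφv, hpC c hc, sub_self, Matrix.mulVec_zero, add_zero]
  have hφNv : ∀ n ∈ N, φ *ᵥ n = φN *ᵥ n := by
    intro n hn
    rw [hφv, hpN n hn, sub_zero, Matrix.mulVec_zero, zero_add]
  have hdec : ∀ w ∈ W, ∃ c ∈ C, ∃ n ∈ N, w = c + n := by
    intro w hw
    rw [← hsup] at hw
    obtain ⟨c, hc, n, hn, rfl⟩ := Submodule.mem_sup.mp hw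
    exact ⟨c, hc, n, hn, rfl⟩
  have hval : ∀ c ∈ C, ∀ n ∈ N, φ *ᵥ (c + n) = φC *ᵥ c + φN *ᵥ n := by
    intro c hc n hn
    rw [Matrix.mulVec_add, hφCv c hc, hφNv n hn]
  refine ⟨φ, ⟨?_, ?_, ?_⟩, hφCv, hφNv⟩
  · intro w hw
    obtain ⟨c, hc, n, hn, rfl⟩ := hdec w hw
    rw [hval c hc n hn, ← hsup]
    exact Submodule.add_mem _ (Submodule.mem_sup_left (hφC.1 c hc))
      (Submodule.mem_sup_right (hφN.1 n hn))
  · intro w hw
    obtain ⟨c, hc, n, hn, rfl⟩ := hdec w hw
    rw [hval c hc n hn, hval _ (hφC.1 c hc) _ (hφN.1 n hn), hφC.2.1 c hc, hφN.2.1 n hn, smul_add]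
  · intro u hu v hv
    obtain ⟨c, hc, n, hn, rfl⟩ := hdec u hu
    obtain ⟨c', hc', n', hn', rfl⟩ := hdec v hv
    rw [hval c hc n hn, hval c' hc' n' hn']
    simp only [hB.add_left, hB.add_right]
    have e1 : QuadraticMap.polar Q (φC *ᵥ c) n' = 0 := hperp _ (hφC.1 c hc) n' hn'
    have e2 : QuadraticMap.polar Q (φN *ᵥ n) c' = 0 := by
      rw [hsymm]
      exact hperp c' hc' _ (hφN.1 n hn)
    have e3 : QuadraticMap.polar Q c (φN *ᵥ n') = 0 := hperp c hc _ (hφN.1 n' hn')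
    have e4 : QuadraticMap.polar Q n (φC *ᵥ c') = 0 := by
      rw [hsymm]
      exact hperp _ (hφC.1 c' hc') n hn
    rw [e1, e2, e3, e4, hφC.2.2 c hc c' hc', hφN.2.2 n hn n' hn']

end Cfsg.Agent.Lib.Helper82.OFM
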