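import Mathlib
import Cfsg.Agent.Lib.Helper74.OFM.Defs
import Cfsg.Agent.Lib.Helper14.Isom
import Cfsg.Agent.Lib.Helper82.OFX.TwistM

/-!
# S5978 (team project OFM), package [TWISTM] (generic)

Isometries `x` of any nondegenerate quadratic form (odd characteristic, finite field) with
`x * x = -1` are `Twisted`.  Wrapper around
`Cfsg.Agent.Lib.Helper82.OFX.exists_alpha_matrix`.
-/

set_option autoImplicit false

namespace Cfsg.Agent.Lib.Helper82.OFM

open Matrix Cfsg.Agent.Lib.Helper74.OFM Cfsg.Agent.Lib.Helper14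

universe u

/-- A non-degenerate quadratic form given as a function is a `QuadraticForm` with non-degenerate
polar form. -/
theorem qf_of_geo {F : Type u} [Field F] {ι : Type} {Q : (ι → F) → F}
    (hQ : Cfsg.Geo.IsNondegenerateQuadraticForm Q) :
    ∃ Q' : QuadraticForm F (ι → F), ⇑Q' = Q ∧ (QuadraticMap.polarBilin Q').Nondegenerate := by
  refine ⟨QuadraticMap.ofPolar Q (fun a x => by rw [hQ.smul, smul_eq_mul, pow_two])
    (fun x x' y => hQ.polar_bilinear.add_left x x' y)
    (fun a x y => by rw [hQ.polar_bilinear.smul_left, smul_eq_mul]), rfl, ?_, ?_⟩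
  · intro x hx
    by_contra hx0
    obtain ⟨y, hy⟩ := (hQ.nondegenerate x hx0).2
    exact hy (hx y)
  · intro y hy
    by_contra hy0
    obtain ⟨x, hx⟩ := (hQ.nondegenerate y hy0).1
    exact hx (hy x)

/-- [TWISTM] (generic) -/
theorem pkgTwistM : Cfsg.Agent.Lib.Helper74.OFM.PkgTwistM.{u} := by
  intro F _ _ hodd ι _ _ Q hQ hcard a ha x hx hxx
  classical
  have h2 : (2 : F) ≠ 0 := by
    apply Ring.two_ne_zero
    intro hc
    have h3 := FiniteField.even_card_of_char_two hc
    rw [Nat.odd_iff] at hodd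
    omega
  have : Nonempty ι := Fintype.card_pos_iff.mp (by omega)
  have hxiso := (mem_isometryGroup_iff _ x).mp hx
  obtain ⟨Q', hQ', hnd⟩ := qf_of_geo hQ
  obtain ⟨α, u, u', hαα, hadj, hu, hu', hns, h1, h2', h3, h4⟩ :=
    Cfsg.Agent.Lib.Helper82.OFX.exists_alpha_matrix Q' h2 hnd
      (x : Matrix ι ι F) (fun y => by rw [hQ']; exact hxiso y) hxx a ha
  rw [hQ'] at hadj hu hu' hns h2' h3 h4
  exact ⟨α, u, u', ⟨hαα, hadj⟩, hu, hu', hns, Or.inr h1, Or.inr h2', Or.inr h3, Or.inr h4⟩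

end Cfsg.Agent.Lib.Helper82.OFM
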